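-- helper74: UPAIR (S5984) package [D1]: `x² = l²`, `l` of norm 1, both eigenspaces even.
import Mathlib
import Cfsg.Agent.Lib.Helper58.UPair.Defs
import Cfsg.Agent.Lib.Helper45.HermBasic

set_option autoImplicit false

namespace Cfsg.Agent.Lib.Helper74.UPair

open Matrix Cfsg.Agent.Lib.Helper58.UPair Cfsg.Agent.Lib.Helper45

universe u

section linalg

variable {F : Type*} [Field F] {V : Type*} [AddCommGroup V] [Module F V]

theorem disjoint_halves (Vp Vm Up Up' Um Um' : Submodule F V) (hdis : Disjoint Vp Vm)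
    (hUp : Up ≤ Vp) (hUp' : Up' ≤ Vp) (hUm : Um ≤ Vm) (hUm' : Um' ≤ Vm)
    (hdp : Disjoint Up Up') (hdm : Disjoint Um Um') :
    Disjoint (Up ⊔ Um) (Up' ⊔ Um') := by
  rw [Submodule.disjoint_def]
  intro a ha ha'
  obtain ⟨y, hy, z, hz, hyz⟩ := Submodule.mem_sup.mp ha
  obtain ⟨y', hy', z', hz', hyz'⟩ := Submodule.mem_sup.mp ha'
  have e : y - y' = z' - z := by
    rw [sub_eq_sub_iff_add_eq_add, hyz, add_comm, hyz']
  have h1 : y - y' = 0 :=
    Submodule.disjoint_def.mp hdis _ (Vp.sub_mem (hUp hy) (hUp' hy'))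
      (by rw [e]; exact Vm.sub_mem (hUm' hz') (hUm hz))
  have h2 : z' - z = 0 := by rw [← e]; exact h1
  have hy0 : y = 0 := by
    have : y = y' := sub_eq_zero.mp h1
    exact Submodule.disjoint_def.mp hdp _ hy (by rw [this]; exact hy')
  have hz0 : z = 0 := by
    have : z' = z := sub_eq_zero.mp h2
    exact Submodule.disjoint_def.mp hdm _ hz (by rw [← this]; exact hz')
  rw [← hyz, hy0, hz0, add_zero]

theorem finrank_sup_of_disjoint [FiniteDimensional F V] (U W : Submodule F V)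
    (h : Disjoint U W) :
    Module.finrank F ↥(U ⊔ W) = Module.finrank F U + Module.finrank F W := by
  have e := Submodule.finrank_sup_add_finrank_inf_eq U W
  rw [disjoint_iff.mp h, finrank_bot, add_zero] at e
  exact e

end linalg

section eig

variable {F : Type u} [Field F] {n : ℕ}

/-- The `c`-eigenspace of a matrix, as the kernel of `X - c`. -/
def eigS (X : Matrix (Fin n) (Fin n) F) (c : F) : Submodule F (Fin n → F) :=
  LinearMap.ker (Matrix.toLin' (X - c • (1 : Matrix (Fin n) (Fin n) F)))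

theorem mem_eigS (X : Matrix (Fin n) (Fin n) F) (c : F) (v : Fin n → F) :
    v ∈ eigS X c ↔ X *ᵥ v = c • v := by
  rw [eigS, LinearMap.mem_ker, Matrix.toLin'_apply, Matrix.sub_mulVec, Matrix.smul_mulVec,
    Matrix.one_mulVec, sub_eq_zero]

theorem eig_decomp {X : Matrix (Fin n) (Fin n) F} {l : F}
    (hXsq : X * X = (l ^ 2) • (1 : Matrix (Fin n) (Fin n) F)) (hl0 : l ≠ 0) (h2 : (2 : F) ≠ 0)
    (v : Fin n → F) : ∃ p ∈ eigS X l, ∃ m ∈ eigS X (-l), v = p + m := by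
  have hXX : ∀ w, X *ᵥ (X *ᵥ w) = (l ^ 2) • w := by
    intro w
    rw [Matrix.mulVec_mulVec, hXsq, Matrix.smul_mulVec, Matrix.one_mulVec]
  obtain ⟨c, hc⟩ : ∃ c : F, c * (2 * l) = 1 := ⟨(2 * l)⁻¹, inv_mul_cancel₀ (mul_ne_zero h2 hl0)⟩
  refine ⟨c • (l • v + X *ᵥ v), ?_, c • (l • v - X *ᵥ v), ?_, ?_⟩
  · rw [mem_eigS, Matrix.mulVec_smul, Matrix.mulVec_add, Matrix.mulVec_smul, hXX]
    ext i
    simp only [Pi.smul_apply, Pi.add_apply, smul_eq_mul]
    ring
  · rw [mem_eigS, Matrix.mulVec_smul, Matrix.mulVec_sub, Matrix.mulVec_smul, hXX]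
    ext i
    simp only [Pi.smul_apply, Pi.sub_apply, smul_eq_mul]
    ring
  · ext i
    simp only [Pi.smul_apply, Pi.add_apply, Pi.sub_apply, smul_eq_mul]
    linear_combination (-(v i)) * hc

theorem eig_disjoint {X : Matrix (Fin n) (Fin n) F} {l : F} (hl0 : l ≠ 0) (h2 : (2 : F) ≠ 0) :
    Disjoint (eigS X l) (eigS X (-l)) := by
  rw [Submodule.disjoint_def]
  intro v hp hm
  rw [mem_eigS] at hp hm
  rw [hp] at hm
  have h : ((2 * l) : F) • v = 0 := by
    rw [mul_smul, two_smul]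
    nth_rewrite 2 [hm]
    rw [neg_smul, add_neg_cancel]
  rcases smul_eq_zero.mp h with h' | h'
  · exact absurd h' (mul_ne_zero h2 hl0)
  · exact h'

theorem map_eq_of_scalar {W : Submodule F (Fin n → F)} {X : Matrix (Fin n) (Fin n) F} {c : F}
    (hc : c ≠ 0) (h : ∀ w ∈ W, X *ᵥ w = c • w) : W.map (Matrix.toLin' X) = W := by
  apply le_antisymm
  · rintro _ ⟨w, hw, rfl⟩
    rw [Matrix.toLin'_apply, h w hw]
    exact W.smul_mem c hw
  · intro w hw
    refine ⟨c⁻¹ • w, W.smul_mem _ hw, ?_⟩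
    rw [Matrix.toLin'_apply, Matrix.mulVec_smul, h w hw, smul_smul, inv_mul_cancel₀ hc, one_smul]

end eig

theorem two_ne_zero_of_odd_card'' {F : Type*} [Field F] [Fintype F]
    (hodd : Odd (Fintype.card F)) : (2 : F) ≠ 0 := by
  intro h2
  have h1 : addOrderOf (1 : F) ∣ 2 :=
    addOrderOf_dvd_of_nsmul_eq_zero (by rw [nsmul_eq_mul]; simpa using h2)
  have h3 : addOrderOf (1 : F) ∣ Fintype.card F := addOrderOf_dvd_card
  rcases (Nat.dvd_prime Nat.prime_two).mp h1 with h | h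
  · rw [AddMonoid.addOrderOf_eq_one_iff] at h
    exact one_ne_zero h
  · rw [h] at h3
    exact (Nat.not_even_iff_odd.mpr hodd) (even_iff_two_dvd.mpr h3)

section herm

variable {F : Type u} [Field F] [Fintype F] {n q : ℕ}

theorem herm_nondeg_of_decomp (hF : Fintype.card F = q ^ 2) (W W' : Submodule F (Fin n → F))
    (horth : ∀ u ∈ W, ∀ v ∈ W', Cfsg.hermForm n F q u v = 0)
    (hdec : ∀ v : Fin n → F, ∃ p ∈ W, ∃ m ∈ W', v = p + m) :
    ∀ u ∈ W, u ≠ 0 → ∃ v ∈ W, Cfsg.hermForm n F q u v ≠ 0 := by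
  intro u hu hu0
  have hq0 : q ≠ 0 := by
    intro h0
    rw [h0] at hF
    have : 0 < Fintype.card F := Fintype.card_pos
    omega
  obtain ⟨i, hi⟩ : ∃ i, u i ≠ 0 := by
    by_contra hcon
    push Not at hcon
    exact hu0 (funext hcon)
  obtain ⟨p, hp, m, hm, hpm⟩ := hdec (Pi.single i 1)
  have e := herm_single_right (F := F) hq0 n u i
  rw [hpm, herm_add_right hF, horth u hu m hm, add_zero] at e
  exact ⟨p, hp, by rw [e]; exact hi⟩

theorem ts_sup (hF : Fintype.card F = q ^ 2) (U W : Submodule F (Fin n → F))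
    (hU : Cfsg.Geo.IsTotallySingularFor (Cfsg.hermForm n F q) U)
    (hW : Cfsg.Geo.IsTotallySingularFor (Cfsg.hermForm n F q) W)
    (h1 : ∀ u ∈ U, ∀ w ∈ W, Cfsg.hermForm n F q u w = 0)
    (h2 : ∀ u ∈ U, ∀ w ∈ W, Cfsg.hermForm n F q w u = 0) :
    Cfsg.Geo.IsTotallySingularFor (Cfsg.hermForm n F q) (U ⊔ W) := by
  intro a ha b hb
  obtain ⟨y, hy, z, hz, rfl⟩ := Submodule.mem_sup.mp ha
  obtain ⟨y', hy', z', hz', rfl⟩ := Submodule.mem_sup.mp hb
  rw [herm_add_left, herm_add_right hF, herm_add_right hF, hU y hy y' hy', h1 y hy z' hz',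
    h2 y' hy' z hz, hW z hz z' hz']
  simp

end herm

theorem pkgD1_of (hH : PkgHyp.{u}) : PkgD1.{u} := by
  intro F _ _ q n x l hF hqodd hneven hn2 hx hx2 hl hrank
  obtain ⟨X, hXdef⟩ : ∃ X : Matrix (Fin n) (Fin n) F, X = (x : Matrix (Fin n) (Fin n) F) :=
    ⟨_, rfl⟩
  have hX : ∀ u v, Cfsg.hermForm n F q (X *ᵥ u) (X *ᵥ v) = Cfsg.hermForm n F q u v := by
    rw [hXdef]; exact hx
  have hXsq : X * X = (l ^ 2) • (1 : Matrix (Fin n) (Fin n) F) := by
    rw [hXdef, ← pow_two, ← Units.val_pow_eq_pow_val]; exact hx2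
  have hl0 : l ≠ 0 := by
    intro h
    rw [h, zero_pow (by omega)] at hl
    exact zero_ne_one hl
  have h2 : (2 : F) ≠ 0 := two_ne_zero_of_odd_card'' (by rw [hF]; exact hqodd.pow)
  have hll : l * l ^ q = 1 := by rw [← pow_succ']; exact hl
  -- orthogonality of the eigenspaces
  have horth : ∀ u ∈ eigS X l, ∀ v ∈ eigS X (-l), Cfsg.hermForm n F q u v = 0 := by
    intro u hu v hv
    rw [mem_eigS] at hu hv
    have e := hX u v
    rw [hu, hv, herm_smul_left, herm_smul_right, hqodd.neg_pow] at e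
    have e' : (2 : F) * Cfsg.hermForm n F q u v = 0 := by
      linear_combination (-1 : F) * e - Cfsg.hermForm n F q u v * hll
    rcases mul_eq_zero.mp e' with h | h
    · exact absurd h h2
    · exact h
  have horth' : ∀ u ∈ eigS X (-l), ∀ v ∈ eigS X l, Cfsg.hermForm n F q u v = 0 := by
    intro u hu v hv
    rw [mem_eigS] at hu hv
    have e := hX u v
    rw [hu, hv, herm_smul_left, herm_smul_right] at e
    have e' : (2 : F) * Cfsg.hermForm n F q u v = 0 := by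
      linear_combination (-1 : F) * e - Cfsg.hermForm n F q u v * hll
    rcases mul_eq_zero.mp e' with h | h
    · exact absurd h h2
    · exact h
  have hdec := eig_decomp hXsq hl0 h2
  have hdec' : ∀ v : Fin n → F, ∃ p ∈ eigS X (-l), ∃ m ∈ eigS X l, v = p + m := by
    intro v
    obtain ⟨p, hp, m, hm, hv⟩ := hdec v
    exact ⟨m, hm, p, hp, by rw [hv, add_comm]⟩
  have hdis : Disjoint (eigS X l) (eigS X (-l)) := eig_disjoint hl0 h2
  have hsup : eigS X l ⊔ eigS X (-l) = ⊤ := by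
    rw [eq_top_iff]
    intro v _
    obtain ⟨p, hp, m, hm, hv⟩ := hdec v
    rw [hv]
    exact Submodule.add_mem_sup hp hm
  -- dimensions
  have hdim : Module.finrank F (eigS X l) + Module.finrank F (eigS X (-l)) = n := by
    have e := finrank_sup_of_disjoint _ _ hdis
    rw [hsup, finrank_top, Module.finrank_fin_fun] at e
    exact e.symm
  have hrk : (sh x l).rank + Module.finrank F (eigS X l) = n := by
    have e := LinearMap.finrank_range_add_finrank_ker
      (Matrix.toLin' (X - l • (1 : Matrix (Fin n) (Fin n) F)))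
    rw [Module.finrank_fin_fun] at e
    have e2 : (sh x l).rank = Module.finrank F
        ↥(LinearMap.range (Matrix.toLin' (X - l • (1 : Matrix (Fin n) (Fin n) F)))) := by
      rw [hXdef]
      rfl
    rw [e2]
    exact e
  obtain ⟨km, hkm⟩ : ∃ km, Module.finrank F (eigS X (-l)) = 2 * km := by
    obtain ⟨k, hk⟩ := hrank
    exact ⟨k, by omega⟩
  obtain ⟨kp, hkp⟩ : ∃ kp, Module.finrank F (eigS X l) = 2 * kp := by
    obtain ⟨k, hk⟩ := hneven
    exact ⟨k - km, by omega⟩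
  have hkk : kp + km = n / 2 := by omega
  obtain ⟨Up, Up', hUp, hUp', hts, hts', hfr, hfr', hdp⟩ := hH F q n kp (eigS X l) hF
    (herm_nondeg_of_decomp hF _ _ horth hdec) hkp
  obtain ⟨Um, Um', hUm, hUm', htsm, htsm', hfrm, hfrm', hdm⟩ := hH F q n km (eigS X (-l)) hF
    (herm_nondeg_of_decomp hF _ _ horth' hdec') hkm
  have hfin0 : Module.finrank F ↥(Up ⊔ Um) = n / 2 := by
    rw [finrank_sup_of_disjoint _ _ (hdis.mono hUp hUm), hfr, hfrm, hkk]
  have hfin1 : Module.finrank F ↥(Up' ⊔ Um') = n / 2 := by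
    rw [finrank_sup_of_disjoint _ _ (hdis.mono hUp' hUm'), hfr', hfrm', hkk]
  have hD : Disjoint (Up ⊔ Um) (Up' ⊔ Um') :=
    disjoint_halves _ _ _ _ _ _ hdis hUp hUp' hUm hUm' hdp hdm
  have htop : (Up ⊔ Um) ⊔ (Up' ⊔ Um') = ⊤ := by
    apply Submodule.eq_top_of_finrank_eq
    rw [finrank_sup_of_disjoint _ _ hD, hfin0, hfin1, Module.finrank_fin_fun]
    obtain ⟨k, hk⟩ := hneven
    omega
  have hfix0 : (Up ⊔ Um).map (Matrix.toLin' X) = Up ⊔ Um := by
    rw [Submodule.map_sup, map_eq_of_scalar hl0 (fun w hw => (mem_eigS X l w).mp (hUp hw)),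
      map_eq_of_scalar (neg_ne_zero.mpr hl0) (fun w hw => (mem_eigS X (-l) w).mp (hUm hw))]
  have hfix1 : (Up' ⊔ Um').map (Matrix.toLin' X) = Up' ⊔ Um' := by
    rw [Submodule.map_sup, map_eq_of_scalar hl0 (fun w hw => (mem_eigS X l w).mp (hUp' hw)),
      map_eq_of_scalar (neg_ne_zero.mpr hl0) (fun w hw => (mem_eigS X (-l) w).mp (hUm' hw))]
  have hts0 : Cfsg.Geo.IsTotallySingularFor (Cfsg.hermForm n F q) (Up ⊔ Um) :=
    ts_sup hF _ _ hts htsm (fun u hu w hw => horth u (hUp hu) w (hUm hw))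
      (fun u hu w hw => horth' w (hUm hw) u (hUp hu))
  have hts1 : Cfsg.Geo.IsTotallySingularFor (Cfsg.hermForm n F q) (Up' ⊔ Um') :=
    ts_sup hF _ _ hts' htsm' (fun u hu w hw => horth u (hUp' hu) w (hUm' hw))
      (fun u hu w hw => horth' w (hUm' hw) u (hUp' hu))
  refine ⟨![Up ⊔ Um, Up' ⊔ Um'], ⟨⟨le_refl 2, by omega, ?_, ?_, ?_⟩, ?_⟩, ?_⟩
  · exact Fin.forall_fin_two.mpr ⟨hfin0, hfin1⟩
  · rw [iSupIndep_pair (i := (0 : Fin 2)) (j := 1) (by decide) (by decide)]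
    exact hD
  · rw [eq_top_iff, ← htop]
    exact sup_le (le_iSup (![Up ⊔ Um, Up' ⊔ Um']) 0) (le_iSup (![Up ⊔ Um, Up' ⊔ Um']) 1)
  · exact Fin.forall_fin_two.mpr ⟨hts0, hts1⟩
  · have hfx : ∀ i, (![Up ⊔ Um, Up' ⊔ Um'] i).map (Matrix.toLin' X) = ![Up ⊔ Um, Up' ⊔ Um'] i :=
      Fin.forall_fin_two.mpr ⟨hfix0, hfix1⟩
    rw [hXdef] at hfx
    exact hfx

end Cfsg.Agent.Lib.Helper74.UPair
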